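import Cfsg.Agent.H35.OnT.ONV1.RChk0

set_option autoImplicit false
set_option linter.all false

namespace Cfsg.Agent.H35

open Cfsg.Spor

theorem onv1_rall : ∀ p, p < 5594 → onv1_rf p = true := by
  apply allR_blocks onv1_rf 5594 9 11 _ (by decide)
  intro k hk
  interval_cases k
  · exact onv1_rchk_0
  · exact onv1_rchk_1
  · exact onv1_rchk_2
  · exact onv1_rchk_3
  · exact onv1_rchk_4
  · exact onv1_rchk_5
  · exact onv1_rchk_6
  · exact onv1_rchk_7
  · exact onv1_rchk_8
  · exact onv1_rchk_9
  · exact onv1_rchk_10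

theorem onv1_circ_ok : circChk (fullW onv1_rws onv1_prels) onv1_circT 0 onv1_ccert = true := by decide +kernel
theorem onv1_hc_ok : allR (fun c => hcChk onv1_rsw onv1_hc1T onv1_hc2T c) 5 3 0 = true := by decide +kernel
theorem onv1_h0 : RData.aord (onv1_rd.ent 0 1) = 0 := by decide +kernel

end Cfsg.Agent.H35
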